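import Cfsg.Agent.Lib.Jordan.OrthInvolInstances
import Cfsg.Agent.Lib.Forms.TICount

/-! Frames with prescribed values in the plus form, and centraliser orders in `Ω⁺` in characteristic two. -/

set_option autoImplicit false
set_option linter.unusedSectionVars false

namespace Cfsg.Agent.Lib.Jordan.OrthInvol

open Matrix QuadraticMap SymmTwo SympInvol Cfsg.Agent.Lib.Forms Cfsg.Agent.Lib.Classical.QuadOmega
  Cfsg.Agent.Lib.Classical.Quad

variable {F : Type*} [Field F] [CharP F 2] {m : ℕ} {σ : Type} [Fintype σ] [DecidableEq σ]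

local notation "nn" => (Fin m ⊕ Fin m)

variable {Q : QuadraticForm F (Fin m ⊕ Fin m → F)}

/-- The frames on which the form is the square of the linear form `c`. -/
def FR (Q : QuadraticForm F (Fin m ⊕ Fin m → F)) (c : σ → F) : Type _ :=
  {W : Matrix (Fin m ⊕ Fin m) σ F // Frame W ∧ ∀ i, Q (W *ᵥ Pi.single i 1) = c i ^ 2}

theorem polar_cols (hQ : StdPolar Q) (W : Matrix nn σ F) (i j : σ) :
    polar Q (W *ᵥ Pi.single i 1) (W *ᵥ Pi.single j 1) = (Wᵀ * Matrix.J (Fin m) F * W) i j := by
  rw [hQ, Matrix.mulVec_single_one, Matrix.mulVec_single_one, Matrix.mul_assoc, Matrix.mul_apply']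
  rfl

theorem quad_frame (hQ : StdPolar Q) {W : Matrix nn σ F} (hW : Frame W) (v : σ → F) :
    Q (W *ᵥ v) = ∑ i, v i ^ 2 * Q (W *ᵥ Pi.single i 1) := by
  have h : ∀ s : Finset σ, Q (∑ i ∈ s, v i • W *ᵥ Pi.single i 1) = ∑ i ∈ s, v i ^ 2 * Q (W *ᵥ Pi.single i 1) := by
    intro s
    induction s using Finset.induction with
    | empty => simp
    | insert i s hi ih =>
      have e0 : polar Q (v i • W *ᵥ Pi.single i 1) (∑ j ∈ s, v j • W *ᵥ Pi.single j 1) = 0 := by
        rw [← polarBilin_apply_apply, map_sum]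
        refine Finset.sum_eq_zero fun j hj => ?_
        rw [polarBilin_apply_apply, polar_smul_left, polar_smul_right, polar_cols hQ, hW.1]
        simp
      rw [Finset.sum_insert hi, Finset.sum_insert hi, QuadraticMap.map_add ⇑Q, ih, QuadraticMap.map_smul,
        e0, add_zero, smul_eq_mul, _root_.sq]
  rw [← h]
  congr 1
  ext a
  simp [Matrix.mulVec, dotProduct, Pi.single_apply, mul_comm]

theorem qf_iff_diag [Finite F] (hQ : StdPolar Q) {W : Matrix nn σ F} {S : Matrix σ σ F} (hsym : Sᵀ = S)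
    (hS : IsUnit S.det) : QF Q W S ↔ Frame W ∧ ∀ i, Q (W *ᵥ Pi.single i 1) = S⁻¹ i i := by
  have hsi : (S⁻¹)ᵀ = S⁻¹ := by rw [Matrix.transpose_nonsing_inv, hsym]
  constructor
  · intro h
    refine ⟨h.1, fun i => ?_⟩
    have h1 := h.2 (S⁻¹ *ᵥ Pi.single i 1)
    rw [Matrix.mulVec_mulVec _ S, Matrix.mul_nonsing_inv _ hS, Matrix.one_mulVec, dotProduct_single, mul_one] at h1
    rw [h1, Matrix.mulVec_single_one]
    rfl
  · rintro ⟨hW, hv⟩
    refine ⟨hW, fun w => ?_⟩
    rw [quad_frame hQ hW]
    simp only [hv]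
    rw [← quad_diag hsi, Matrix.mulVec_mulVec, Matrix.nonsing_inv_mul _ hS, Matrix.one_mulVec,
      dotProduct_comm]

theorem sq_bij [Finite F] : Function.Bijective (fun x : F => x ^ 2) :=
  Finite.injective_iff_bijective.1 CharTwo.sq_injective

/-- The prescribed values of a shape are squares of a linear form. -/
theorem card_qf [Finite F] (hQ : StdPolar Q) {S : Matrix σ σ F} (hsym : Sᵀ = S) (hS : IsUnit S.det) :
    ∃ c : σ → F, (c = 0 ↔ ∀ u, u ⬝ᵥ S *ᵥ u = 0) ∧
      Nat.card {W : Matrix nn σ F // QF Q W S} = Nat.card (FR Q c) := by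
  have hsi : (S⁻¹)ᵀ = S⁻¹ := by rw [Matrix.transpose_nonsing_inv, hsym]
  choose c hc using fun i => (sq_bij (F := F)).2 (S⁻¹ i i)
  simp only at hc
  refine ⟨c, ⟨fun h u => ?_, fun h => funext fun i => ?_⟩,
    Nat.card_congr (Equiv.subtypeEquivRight fun W => by simp only [qf_iff_diag hQ hsym hS, hc])⟩
  · have e : u ⬝ᵥ S *ᵥ u = (S *ᵥ u) ⬝ᵥ S⁻¹ *ᵥ (S *ᵥ u) := by
      rw [Matrix.mulVec_mulVec, Matrix.nonsing_inv_mul _ hS, Matrix.one_mulVec, dotProduct_comm]
    rw [e, quad_diag hsi]
    exact Finset.sum_eq_zero fun i _ => by rw [← hc, h, Pi.zero_apply, zero_pow two_ne_zero, mul_zero]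
  · have h1 := h (S⁻¹ *ᵥ Pi.single i 1)
    rw [Matrix.mulVec_mulVec, Matrix.mul_nonsing_inv _ hS, Matrix.one_mulVec, dotProduct_single, mul_one,
      Matrix.mulVec_single_one] at h1
    exact pow_eq_zero_iff two_ne_zero |>.1 ((hc i).trans h1)

/-- A base change moving a coordinate functional to a given one. -/
theorem card_FR_single [Finite F] (hQ : StdPolar Q) {c : σ → F} {i : σ} (hi : c i ≠ 0) :
    Nat.card (FR Q c) = Nat.card (FR Q (Pi.single i 1 : σ → F)) := by
  classical
  set A : Matrix σ σ F := (1 : Matrix σ σ F).updateRow i c with hA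
  have hAv : ∀ v, A *ᵥ v = Function.update v i (c ⬝ᵥ v) := fun v => by
    funext k
    rcases eq_or_ne k i with rfl | hk
    · simp [hA, Matrix.mulVec]
    · rw [Function.update_of_ne hk]
      show A k ⬝ᵥ v = v k
      rw [hA, Matrix.updateRow_ne hk]
      simp [dotProduct, Matrix.one_apply]
  have hu : IsUnit A := Matrix.mulVec_injective_iff_isUnit.1 fun v w h => by
    rw [hAv, hAv] at h
    funext k
    rcases eq_or_ne k i with rfl | hk
    · have h1 := congrFun h k
      rw [Function.update_self, Function.update_self] at h1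
      have h2 : ∀ j ∈ (Finset.univ : Finset σ), j ≠ k → c j * v j = c j * w j := fun j _ hj => by
        have := congrFun h j
        rw [Function.update_of_ne hj, Function.update_of_ne hj] at this
        rw [this]
      rw [dotProduct, dotProduct, ← Finset.add_sum_erase _ _ (Finset.mem_univ k),
        ← Finset.add_sum_erase _ _ (Finset.mem_univ k),
        Finset.sum_congr rfl fun j hj => h2 j (Finset.mem_univ j) (Finset.ne_of_mem_erase hj)] at h1
      exact mul_left_cancel₀ hi (add_right_cancel h1)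
    · have := congrFun h k
      rwa [Function.update_of_ne hk, Function.update_of_ne hk] at this
  have hd : IsUnit A.det := (Matrix.isUnit_iff_isUnit_det A).1 hu
  have hframe : ∀ (B : Matrix σ σ F), IsUnit B.det → ∀ W : Matrix nn σ F, Frame W → Frame (W * B) := by
    rintro B hB W ⟨h1, V, hV⟩
    refine ⟨?_, B⁻¹ * V, ?_⟩
    · rw [Matrix.transpose_mul, show Bᵀ * Wᵀ * Matrix.J (Fin m) F * (W * B) =
        Bᵀ * (Wᵀ * Matrix.J (Fin m) F * W) * B by simp only [Matrix.mul_assoc], h1, Matrix.mul_zero,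
        Matrix.zero_mul]
    · rw [show B⁻¹ * V * (W * B) = B⁻¹ * (V * W) * B by simp only [Matrix.mul_assoc], hV, Matrix.mul_one,
        Matrix.nonsing_inv_mul _ hB]
  have hcol : ∀ (W : Matrix nn σ F), Frame W → (∀ j, Q (W *ᵥ Pi.single j 1) = (Pi.single i 1 : σ → F) j ^ 2) →
      ∀ v, Q (W *ᵥ v) = v i ^ 2 := by
    intro W hW h v
    rw [quad_frame hQ hW, Finset.sum_eq_single i (fun j _ hj => by rw [h, Pi.single_eq_of_ne hj]; simp)
      (by simp), h, Pi.single_eq_same, one_pow, mul_one]
  refine (Nat.card_eq_of_bijective (fun W : FR Q (Pi.single i 1 : σ → F) =>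
    (⟨W.1 * A, hframe A hd _ W.2.1, fun j => ?_⟩ : FR Q c)) ⟨?_, ?_⟩).symm
  · rw [← Matrix.mulVec_mulVec, hcol _ W.2.1 W.2.2, hAv, Function.update_self, dotProduct_single, mul_one]
  · intro W W' h
    have := congrArg (fun Z : FR Q c => Z.1 * A⁻¹) h
    simp only [Matrix.mul_assoc, Matrix.mul_nonsing_inv _ hd, Matrix.mul_one] at this
    exact Subtype.ext this
  · intro W
    refine ⟨⟨W.1 * A⁻¹, hframe _ (Matrix.isUnit_nonsing_inv_det _ hd) _ W.2.1, fun j => ?_⟩, Subtype.ext ?_⟩
    · rw [← Matrix.mulVec_mulVec, quad_frame hQ W.2.1]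
      simp only [W.2.2, ← mul_pow]
      rw [← CharTwo.sum_sq]
      congr 1
      have := congrFun (hAv (A⁻¹ *ᵥ Pi.single j 1)) i
      rw [Matrix.mulVec_mulVec, Matrix.mul_nonsing_inv _ hd, Matrix.one_mulVec, Function.update_self,
        dotProduct] at this
      rw [show (Pi.single i (1 : F) : σ → F) j = (Pi.single j (1 : F) : σ → F) i by
        simp [Pi.single_apply, eq_comm], this]
      exact Finset.sum_congr rfl fun k _ => mul_comm _ _
    · show W.1 * A⁻¹ * A = W.1
      rw [Matrix.mul_assoc, Matrix.nonsing_inv_mul _ hd, Matrix.mul_one]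

theorem card_FR_eq [Finite F] (hQ : StdPolar Q) {c c' : σ → F} (hc : c ≠ 0) (hc' : c' ≠ 0) :
    Nat.card (FR Q c) = Nat.card (FR Q c') := by
  obtain ⟨i, hi⟩ := Function.ne_iff.1 hc
  obtain ⟨j, hj⟩ := Function.ne_iff.1 hc'
  rw [Pi.zero_apply] at hi hj
  rw [card_FR_single hQ hi, card_FR_single hQ hj]
  rcases eq_or_ne i j with rfl | hij
  · rfl
  · have h1 := card_FR_single hQ (c := (Pi.single i 1 + Pi.single j 1 : σ → F)) (i := i) (by simp [hij])
    have h2 := card_FR_single hQ (c := (Pi.single i 1 + Pi.single j 1 : σ → F)) (i := j) (by simp [hij.symm])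
    exact h1.symm.trans h2

/-- All frames are split by their linear form. -/
theorem card_FR_split [Fintype F] (hQ : StdPolar Q) {c : σ → F} (hc : c ≠ 0) :
    Nat.card {W : Matrix nn σ F // Frame W} =
      Nat.card (FR Q (0 : σ → F)) + (Fintype.card F ^ Fintype.card σ - 1) * Nat.card (FR Q c) := by
  classical
  have (d : σ → F) : Finite (FR Q d) := by unfold FR; infer_instance
  have e : (Σ d : σ → F, FR Q d) ≃ {W : Matrix nn σ F // Frame W} := by
    refine Equiv.ofBijective (fun p => ⟨p.2.1, p.2.2.1⟩) ⟨?_, ?_⟩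
    · rintro ⟨d, W, hW⟩ ⟨d', W', hW'⟩ h
      obtain rfl : W = W' := congrArg Subtype.val h
      obtain rfl : d = d' := funext fun i => CharTwo.sq_injective ((hW.2 i).symm.trans (hW'.2 i))
      rfl
    · rintro ⟨W, hW⟩
      choose d hd using fun i => (sq_bij (F := F)).2 (Q (W *ᵥ Pi.single i 1))
      exact ⟨⟨d, W, hW, fun i => (hd i).symm⟩, rfl⟩
  rw [← Nat.card_congr e, Nat.card_sigma, ← Finset.add_sum_erase _ _ (Finset.mem_univ (0 : σ → F)),
    Finset.sum_congr rfl fun d hd => card_FR_eq hQ (Finset.ne_of_mem_erase hd) hc, Finset.sum_const,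
    Finset.card_erase_of_mem (Finset.mem_univ _), Finset.card_univ, Fintype.card_fun, smul_eq_mul]

/-- Singular vectors orthogonal to the standard singular frame. -/
theorem card_sing_perp_std [Fintype F] (i d : ℕ) (hd : 1 ≤ d) :
    Nat.card {v : Fin (i + d) ⊕ Fin (i + d) → F //
      plusQ (i + d) F v = 0 ∧ ∀ j : Fin i, v (Sum.inr (Fin.castAdd d j)) = 0} =
      Fintype.card F ^ i * (Fintype.card F ^ (2 * d - 1) + Fintype.card F ^ d - Fintype.card F ^ (d - 1)) := by
  classical
  have hsplit : ∀ v : Fin (i + d) ⊕ Fin (i + d) → F, (∀ j : Fin i, v (Sum.inr (Fin.castAdd d j)) = 0) →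
      plusQ (i + d) F v = Cfsg.quadFormPlus d F
        (fun z => v (Sum.map (Fin.natAdd i) (Fin.natAdd i) z)) := by
    intro v hv
    rw [plusQ_apply, Cfsg.quadFormPlus, Cfsg.quadFormPlus, Fin.sum_univ_add]
    simp [hv]
  rw [← Cfsg.Agent.Lib.Classical.Quad.card_sing_plus (F := F) d hd,
    show Fintype.card F ^ i = Nat.card (Fin i → F) by simp, ← Nat.card_prod]
  refine Nat.card_eq_of_bijective (fun v => ((fun j => v.1 (Sum.inl (Fin.castAdd d j))),
    ⟨fun z => v.1 (Sum.map (Fin.natAdd i) (Fin.natAdd i) z), by rw [← hsplit _ v.2.2]; exact v.2.1⟩)) ⟨?_, ?_⟩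
  · rintro ⟨v, hv⟩ ⟨w, hw⟩ h
    obtain ⟨h1, h2⟩ := Prod.ext_iff.1 h
    refine Subtype.ext (funext fun z => ?_)
    rcases z with z | z <;> induction z using Fin.addCases with
      | left j => first | exact congrFun h1 j | exact (hv.2 j).trans (hw.2 j).symm
      | right j => first
          | exact congrFun (congrArg Subtype.val h2) (Sum.inl j)
          | exact congrFun (congrArg Subtype.val h2) (Sum.inr j)
  · rintro ⟨a, w, hw⟩
    let v : Fin (i + d) ⊕ Fin (i + d) → F :=
      Sum.elim (Fin.addCases a fun j => w (Sum.inl j)) (Fin.addCases 0 fun j => w (Sum.inr j))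
    have hv : ∀ j : Fin i, v (Sum.inr (Fin.castAdd d j)) = 0 := fun j => by simp [v]
    have e : (fun z => v (Sum.map (Fin.natAdd i) (Fin.natAdd i) z)) = w :=
      funext fun z => by rcases z with z | z <;> simp [v]
    refine ⟨⟨v, by rw [hsplit v hv, e]; exact hw, hv⟩, Prod.ext (funext fun j => by simp [v]) (Subtype.ext e)⟩

/-- The incidence used for singular frames. -/
noncomputable def singRel (Q : QuadraticForm F (Fin m ⊕ Fin m → F)) (x y : Fin m ⊕ Fin m → F) : F := by
  classical
  exact if x = y then Q x else polar Q x y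

theorem singRel_self (x : nn → F) : singRel Q x x = Q x := if_pos rfl

theorem singRel_ne {x y : nn → F} (h : x ≠ y) : singRel Q x y = polar Q x y := if_neg h

theorem quad_span_zero {i : ℕ} {u : Fin i → nn → F} (hQ : StdPolar Q) (h : ∀ a b, singRel Q (u a) (u b) = 0)
    (v : nn → F) (hv : v ∈ Submodule.span F (Set.range u)) : Q v = 0 ∧ ∀ j, polar Q (u j) v = 0 := by
  have hp : ∀ a b, polar Q (u a) (u b) = 0 := fun a b => by
    rcases eq_or_ne (u a) (u b) with e | e
    · rw [e, hQ]; exact SA_alt m _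
    · rw [← singRel_ne e]; exact h a b
  induction hv using Submodule.span_induction with
  | mem x hx =>
    obtain ⟨a, rfl⟩ := hx
    exact ⟨(singRel_self _).symm.trans (h a a), fun j => hp j a⟩
  | zero => exact ⟨map_zero Q, fun j => by simp⟩
  | add x y hx hy ihx ihy =>
    refine ⟨?_, fun j => by rw [polar_add_right, ihx.2, ihy.2, add_zero]⟩
    have : polar Q x y = 0 := by
      clear ihx
      induction hx using Submodule.span_induction with
      | mem x hx => obtain ⟨a, rfl⟩ := hx; exact ihy.2 a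
      | zero => simp
      | add x z _ _ h1 h2 => rw [polar_add_left, h1, h2, add_zero]
      | smul r x _ h1 => rw [polar_smul_left, h1, smul_zero]
    rw [QuadraticMap.map_add ⇑Q, ihx.1, ihy.1, this, add_zero, add_zero]
  | smul r x _ ih =>
    exact ⟨by rw [QuadraticMap.map_smul, ih.1, smul_zero], fun j => by rw [polar_smul_right, ih.2, smul_zero]⟩

/-- One step of the singular frame count. -/
theorem card_sing_ext [Fintype F] {i : ℕ} (hi : i < m) (u : TIFrame (singRel (plusQ m F)) i) :
    Nat.card {v : nn → F // singRel (plusQ m F) v v = 0 ∧ (∀ j, singRel (plusQ m F) (u.1 j) v = 0) ∧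
      v ∉ Submodule.span F (Set.range u.1)} =
      Fintype.card F ^ i * (Fintype.card F ^ (2 * (m - i) - 1) + Fintype.card F ^ (m - i) -
        Fintype.card F ^ (m - i - 1)) - Fintype.card F ^ i := by
  classical
  obtain ⟨d, rfl⟩ : ∃ d, m = i + d := ⟨m - i, by omega⟩
  rw [Nat.add_sub_cancel_left]
  have hQ := plus_std (F := F) (i + d)
  let e : Fin i → (Fin (i + d) ⊕ Fin (i + d) → F) := fun j => Pi.single (Sum.inl (Fin.castAdd d j)) 1
  have hli : LinearIndependent F e := by
    have := (Pi.basisFun F (Fin (i + d) ⊕ Fin (i + d))).linearIndependent.comp (fun j => Sum.inl (Fin.castAdd d j))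
      (Sum.inl_injective.comp (Fin.castAdd_injective i d))
    simpa [e, Function.comp_def] using this
  have hpe : ∀ j v, polar (plusQ (i + d) F) (e j) v = v (Sum.inr (Fin.castAdd d j)) := fun j v => by
    rw [hQ, single_dotProduct, one_mul]
    simp [Matrix.J, Matrix.fromBlocks_mulVec, Matrix.neg_mulVec, CharTwo.neg_eq]
  have he : ∀ a b, singRel (plusQ (i + d) F) (e a) (e b) = 0 := fun a b => by
    rcases eq_or_ne (e a) (e b) with h | h
    · rw [← h, singRel_self, plusQ_apply]
      simp [Cfsg.quadFormPlus, e]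
    · rw [singRel_ne h, hpe]
      simp [e]
  -- move the frame to the standard one
  let X : Submodule F (Fin (i + d) ⊕ Fin (i + d) → F) := Submodule.span F (Set.range u.1)
  let b := Module.Basis.span u.2.1
  let φ : X →ₗ[F] (Fin (i + d) ⊕ Fin (i + d) → F) := b.constr F e
  have hφb : ∀ j, φ (b j) = e j := fun j => b.constr_basis F e j
  have hbu : ∀ j, ((b j : X) : Fin (i + d) ⊕ Fin (i + d) → F) = u.1 j := fun j => congrArg Subtype.val (Module.Basis.span_apply u.2.1 j)
  have hinj : Function.Injective φ := (injective_iff_map_eq_zero φ).2 fun x hx => by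
    rw [show φ x = b.constr F e x from rfl, Module.Basis.constr_apply_fintype] at hx
    have := Fintype.linearIndependent_iff.1 hli _ hx
    exact b.ext_elem fun j => by simpa using this j
  have hφQ : ∀ x : X, plusQ (i + d) F (φ x) = plusQ (i + d) F (x : Fin (i + d) ⊕ Fin (i + d) → F) := by
    intro x
    rw [(quad_span_zero hQ u.2.2 x x.2).1]
    refine (quad_span_zero hQ he _ ?_).1
    rw [show φ x = b.constr F e x from rfl, ← Module.Basis.constr_range b F]
    exact LinearMap.mem_range_self _ x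
  obtain ⟨γ, hγQ, hγ⟩ := witt_extension (Q := plusQ (i + d) F) (polarBilin_nondeg hQ) _ X rfl φ hinj hφQ
  have hγu : ∀ j, γ (u.1 j) = e j := fun j => by rw [← hbu, hγ, hφb]
  have hγp : ∀ x y, polar (plusQ (i + d) F) (γ x) (γ y) = polar (plusQ (i + d) F) x y := fun x y => by
    simp only [polar, ← map_add, hγQ]
  -- the two sets
  let A := {v : Fin (i + d) ⊕ Fin (i + d) → F //
    plusQ (i + d) F v = 0 ∧ ∀ j, polar (plusQ (i + d) F) (u.1 j) v = 0}
  have hA : Nat.card A = Fintype.card F ^ i * (Fintype.card F ^ (2 * d - 1) + Fintype.card F ^ d -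
      Fintype.card F ^ (d - 1)) := by
    rw [← card_sing_perp_std (F := F) i d (by omega)]
    exact Nat.card_congr (γ.toEquiv.subtypeEquiv fun v => by
      simp only [LinearEquiv.coe_toEquiv, hγQ, ← hpe, ← hγu, hγp])
  have hX : Nat.card X = Fintype.card F ^ i := by
    rw [Module.natCard_eq_pow_finrank (K := F), Nat.card_eq_fintype_card, finrank_span_eq_card u.2.1,
      Fintype.card_fin]
  let p : A → Prop := fun v => v.1 ∈ X
  have h1 : Nat.card {v : A // p v} = Nat.card X := Nat.card_congr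
    { toFun := fun v => ⟨v.1.1, v.2⟩
      invFun := fun x => ⟨⟨x.1, quad_span_zero hQ u.2.2 x.1 x.2⟩, x.2⟩
      left_inv := fun v => rfl
      right_inv := fun x => rfl }
  have h2 := Nat.card_congr (Equiv.sumCompl p)
  rw [Nat.card_sum, h1, hX, hA] at h2
  rw [← h2, Nat.add_sub_cancel_left]
  refine Nat.card_congr
    { toFun := fun v => ⟨⟨v.1, (singRel_self _).symm.trans v.2.1, fun j => ?_⟩, v.2.2.2⟩
      invFun := fun v => ⟨v.1.1, (singRel_self _).trans v.1.2.1, fun j => ?_, v.2⟩
      left_inv := fun v => rfl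
      right_inv := fun v => rfl }
  · rw [← singRel_ne (fun h => v.2.2.2 (by rw [← h]; exact Submodule.subset_span (Set.mem_range_self j)))]
    exact v.2.2.1 j
  · rw [singRel_ne (fun h => v.2 (show v.1.1 ∈ X by rw [← h]; exact Submodule.subset_span (Set.mem_range_self j)))]
    exact v.1.2.2 j

/-- Singular frames against all frames. -/
theorem card_FR_zero [Fintype F] (hs : Fintype.card σ ≤ m) :
    Nat.card (FR (plusQ m F) (0 : σ → F)) * (Fintype.card F ^ m + 1) =
      Nat.card {W : Matrix nn σ F // Frame W} * (Fintype.card F ^ (m - Fintype.card σ) + 1) := by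
  classical
  have hQ := plus_std (F := F) m
  set ε := Fintype.equivFin σ
  have hpol : ∀ (W : Matrix nn σ F), (∀ i, plusQ m F (W *ᵥ Pi.single i 1) = 0) →
      (Wᵀ * Matrix.J (Fin m) F * W = 0 ↔
        ∀ a b, singRel (plusQ m F) (W *ᵥ Pi.single (ε.symm a) 1) (W *ᵥ Pi.single (ε.symm b) 1) = 0) := by
    intro W hW
    constructor
    · intro h a b
      rcases eq_or_ne (W *ᵥ Pi.single (ε.symm a) 1) (W *ᵥ Pi.single (ε.symm b) 1) with e | e
      · rw [← e, singRel_self, hW]
      · rw [singRel_ne e, polar_cols hQ, h]; rfl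
    · intro h
      ext i j
      rw [← polar_cols hQ, Matrix.zero_apply]
      rcases eq_or_ne (W *ᵥ Pi.single i 1) (W *ᵥ Pi.single j 1) with e | e
      · rw [e, hQ]; exact SA_alt m _
      · have := h (ε i) (ε j)
        rwa [Equiv.symm_apply_apply, Equiv.symm_apply_apply, singRel_ne e] at this
  have hcol : ∀ (W : Matrix nn σ F) i, W *ᵥ Pi.single i 1 = W.col i := fun W i => Matrix.mulVec_single_one _ _
  have e1 : Nat.card (FR (plusQ m F) (0 : σ → F)) =
      Nat.card (TIFrame (singRel (plusQ m F)) (Fintype.card σ)) := by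
    refine Nat.card_congr
      { toFun := fun W => ⟨fun a => W.1 *ᵥ Pi.single (ε.symm a) 1, ?_, ?_⟩
        invFun := fun u => ⟨Matrix.of fun x i => u.1 (ε i) x, ?_, fun i => ?_⟩
        left_inv := fun W => Subtype.ext (Matrix.ext fun x i => by simp)
        right_inv := fun u => Subtype.ext (funext fun a => by
          show (Matrix.of fun x i => u.1 (ε i) x) *ᵥ _ = _
          rw [hcol]; funext x; simp) }
    · obtain ⟨-, V, hV⟩ := W.2.1
      simp only [hcol]
      exact (Matrix.mulVec_injective_iff.1 (injective_of_leftInv hV)).comp _ ε.symm.injective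
    · exact (hpol W.1 fun i => by rw [W.2.2]; simp).1 W.2.1.1
    · have hz : ∀ i, plusQ m F ((Matrix.of fun x i => u.1 (ε i) x) *ᵥ Pi.single i 1) = 0 := fun i => by
        rw [hcol]; exact (singRel_self _).symm.trans (u.2.2 (ε i) (ε i))
      refine ⟨(hpol _ hz).2 fun a b => ?_, exists_leftInv (Matrix.mulVec_injective_iff.2 ?_)⟩
      · rw [hcol, hcol, show (Matrix.of fun x i => u.1 (ε i) x).col (ε.symm a) = u.1 a by funext x; simp,
          show (Matrix.of fun x i => u.1 (ε i) x).col (ε.symm b) = u.1 b by funext x; simp]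
        exact u.2.2 a b
      · exact u.2.1.comp _ ε.injective
    · rw [hcol, Pi.zero_apply, zero_pow two_ne_zero]
      exact (singRel_self _).symm.trans (u.2.2 (ε i) (ε i))
  have hsymm : ∀ x y : nn → F, singRel (plusQ m F) x y = 0 ↔ singRel (plusQ m F) y x = 0 := fun x y => by
    rcases eq_or_ne x y with rfl | h
    · rfl
    · rw [singRel_ne h, singRel_ne h.symm, polar_comm]
  rw [e1, card_frame_eq_prod hsymm _ _ (fun i hi u => card_sing_ext (by omega) u), card_frame]
  have key : ∀ s, s ≤ m → (∏ i ∈ Finset.range s, (Fintype.card F ^ i * (Fintype.card F ^ (2 * (m - i) - 1) +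
      Fintype.card F ^ (m - i) - Fintype.card F ^ (m - i - 1)) - Fintype.card F ^ i)) * (Fintype.card F ^ m + 1) =
      (∏ i ∈ Finset.range s, (Fintype.card F ^ (2 * m - i) - Fintype.card F ^ i)) *
        (Fintype.card F ^ (m - s) + 1) := by
    intro s hs
    induction s with
    | zero => simp
    | succ s ih =>
      rw [Finset.prod_range_succ, Finset.prod_range_succ, mul_right_comm, ih (by omega)]
      obtain ⟨d, rfl⟩ : ∃ d, m = d + 1 + s := ⟨m - s - 1, by omega⟩
      rw [Nat.add_sub_cancel, show d + 1 + s - (s + 1) = d by omega,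
        show 2 * (d + 1 + s) - s = 2 * d + 2 + s by omega, show 2 * (d + 1) - 1 = 2 * d + 1 by omega,
        Nat.add_sub_cancel]
      have hq : 1 ≤ Fintype.card F := Fintype.card_pos
      have h1 : Fintype.card F ^ d ≤ Fintype.card F ^ (2 * d + 1) + Fintype.card F ^ (d + 1) :=
        (Nat.pow_le_pow_right hq (by omega)).trans (Nat.le_add_left _ _)
      have h2 : Fintype.card F ^ s ≤ Fintype.card F ^ s *
          (Fintype.card F ^ (2 * d + 1) + Fintype.card F ^ (d + 1) - Fintype.card F ^ d) := by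
        refine Nat.le_mul_of_pos_right _ (Nat.sub_pos_of_lt ?_)
        have h3 : 0 < Fintype.card F ^ (2 * d + 1) := pow_pos hq _
        have h4 : Fintype.card F ^ d ≤ Fintype.card F ^ (d + 1) := Nat.pow_le_pow_right hq (by omega)
        omega
      have h5 : Fintype.card F ^ s ≤ Fintype.card F ^ (2 * d + 2 + s) := Nat.pow_le_pow_right hq (by omega)
      zify [h1, h2, h5]
      ring
  exact key _ hs

/-- Non-singular frames against all frames. -/
theorem card_FR_ne [Fintype F] (hs : Fintype.card σ ≤ m) {c : σ → F} (hc : c ≠ 0) :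
    Nat.card (FR (plusQ m F) c) * (Fintype.card F ^ m + 1) =
      Nat.card {W : Matrix nn σ F // Frame W} * Fintype.card F ^ (m - Fintype.card σ) := by
  have h0 := card_FR_zero (F := F) hs
  have h1 := card_FR_split (plus_std (F := F) m) hc
  obtain ⟨d, rfl⟩ : ∃ d, m = d + Fintype.card σ := ⟨m - Fintype.card σ, by omega⟩
  rw [Nat.add_sub_cancel] at h0 ⊢
  obtain ⟨i, -⟩ := Function.ne_iff.1 hc
  have hq : 1 < Fintype.card F ^ Fintype.card σ :=
    Nat.one_lt_pow (Fintype.card_pos_iff.2 ⟨i⟩).ne' Fintype.one_lt_card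
  refine Nat.eq_of_mul_eq_mul_left (Nat.sub_pos_of_lt hq) ?_
  obtain ⟨p, hp⟩ : ∃ p, Fintype.card F ^ Fintype.card σ = p + 1 := ⟨_, (Nat.succ_pred_eq_of_pos (by omega)).symm⟩
  rw [pow_add, hp] at h0 ⊢
  rw [hp] at h1
  simp only [Nat.add_sub_cancel] at h1 ⊢
  rw [h1] at h0 ⊢
  zify at h0 ⊢
  linear_combination -h0

end Cfsg.Agent.Lib.Jordan.OrthInvol
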