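import Cfsg.Agent.Lib.Jordan.OrthInvolFrames

/-! Centraliser orders of involutions in `Ω⁺` in characteristic two. -/

set_option autoImplicit false
set_option linter.unusedSectionVars false

namespace Cfsg.Agent.Lib.Jordan.OrthInvol

open Matrix QuadraticMap SymmTwo SympInvol Cfsg.Agent.Lib.Classical.QuadOmega Cfsg.Agent.Lib.Classical.Quad

variable {F : Type*} [Field F] [Fintype F] [CharP F 2] {m : ℕ}

local notation "nn" => (Fin m ⊕ Fin m)
local notation "OP" => Cfsg.isometryGroup F (DFunLike.coe (plusQ m F))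

theorem card_O_mul (hm : 1 ≤ m) :
    Nat.card OP * (Fintype.card F ^ m * (Fintype.card F ^ m + 1)) =
      2 * Nat.card (Matrix.symplecticGroup (Fin m) F) := by
  obtain ⟨k, rfl⟩ : ∃ k, m = k + 1 := ⟨m - 1, by omega⟩
  rw [← plusQ_coe, card_O_plus, Cfsg.Agent.Lib.Classical.card_symplecticGroup, Finset.prod_range_succ]
  rw [show Fintype.card F ^ (2 * (k + 1)) - 1 = (Fintype.card F ^ (k + 1) - 1) * (Fintype.card F ^ (k + 1) + 1) by
    rw [mul_comm 2, pow_mul, ← Nat.sq_sub_sq (Fintype.card F ^ (k + 1)) 1 |>.trans (mul_comm _ _), one_pow],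
    show (k + 1) ^ 2 = (k + 1) * k + (k + 1) by ring, pow_add]
  ring

variable {σ : Type} [Fintype σ] [DecidableEq σ]

/-- The centraliser in the orthogonal group against the symplectic data. -/
theorem cent_raw {U : Matrix nn σ F} {S : Matrix σ σ F} (hsym : Sᵀ = S) (hS : IsUnit S.det)
    (hU : QF (plusQ m F) U S) (hs : 1 ≤ Fintype.card σ) (x : OP) (hx : ((x : GL nn F) : Matrix nn nn F) = elt U S) :
    ∃ a : ℕ, ((∀ u, u ⬝ᵥ S *ᵥ u = 0) → a = Fintype.card F ^ (m - Fintype.card σ) + 1) ∧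
      (¬ (∀ u, u ⬝ᵥ S *ᵥ u = 0) → a = Fintype.card F ^ (m - Fintype.card σ)) ∧
      Nat.card (Subgroup.centralizer ({x} : Set OP)) * (Fintype.card F ^ m * a) =
        2 * (Fintype.card F ^ (2 * m * Fintype.card σ - (3 * Fintype.card σ ^ 2 - Fintype.card σ) / 2) *
          ((Fintype.card F : ℕ) ^ ((m - Fintype.card σ) ^ 2) *
            ∏ i : Fin (m - Fintype.card σ), (Fintype.card F ^ (2 * ((i : ℕ) + 1)) - 1)) *
          Nat.card {A : Matrix σ σ F // A * S * Aᵀ = S}) := by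
  classical
  have hQ := plus_std (F := F) m
  have hle : Fintype.card σ ≤ m := card_le_of_frame hU.1
  obtain ⟨c, hc, hN⟩ := card_qf (Q := plusQ m F) hQ hsym hS
  have main := card_centralizer hQ hS hU x hx
  rw [hN] at main
  have hN0 : 0 < Nat.card {W : Matrix nn σ F // Frame W} := by
    haveI : Nonempty {W : Matrix nn σ F // Frame W} := ⟨⟨U, hU.1⟩⟩
    exact Nat.card_pos
  have hO := card_O_mul (F := F) (m := m) (le_trans hs hle)
  have hSp : Nat.card (Matrix.symplecticGroup (Fin m) F) =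
      Fintype.card F ^ (2 * m * Fintype.card σ - (3 * Fintype.card σ ^ 2 - Fintype.card σ) / 2) *
        ((Fintype.card F : ℕ) ^ ((m - Fintype.card σ) ^ 2) *
          ∏ i : Fin (m - Fintype.card σ), (Fintype.card F ^ (2 * ((i : ℕ) + 1)) - 1)) *
        Nat.card {W : Matrix nn σ F // Frame W} := by
    rw [card_frame, Cfsg.Agent.Lib.Classical.card_symplecticGroup, sp_order_split _ m _ hle]
  rw [hSp] at hO
  generalize Nat.card (Subgroup.centralizer ({x} : Set OP)) = C at main ⊢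
  generalize Nat.card OP = O at main hO
  generalize Nat.card {A : Matrix σ σ F // A * S * Aᵀ = S} = I at main ⊢
  generalize Fintype.card F ^ (2 * m * Fintype.card σ - (3 * Fintype.card σ ^ 2 - Fintype.card σ) / 2) *
    ((Fintype.card F : ℕ) ^ ((m - Fintype.card σ) ^ 2) *
      ∏ i : Fin (m - Fintype.card σ), (Fintype.card F ^ (2 * ((i : ℕ) + 1)) - 1)) = E at hO ⊢
  by_cases halt : ∀ u, u ⬝ᵥ S *ᵥ u = 0
  · refine ⟨_, fun _ => rfl, fun h => absurd halt h, Nat.eq_of_mul_eq_mul_right hN0 ?_⟩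
    have h0 := card_FR_zero (F := F) (σ := σ) hle
    rw [hc.2 halt] at main
    generalize Nat.card (FR (plusQ m F) (0 : σ → F)) = N at main h0
    generalize Nat.card {W : Matrix nn σ F // Frame W} = W at hO h0 ⊢
    zify at main hO h0 ⊢
    linear_combination ((Fintype.card F : ℤ) ^ m * ((Fintype.card F : ℤ) ^ m + 1)) * main
      - (C : ℤ) * (Fintype.card F : ℤ) ^ m * h0 + (I : ℤ) * hO
  · refine ⟨_, fun h => absurd h halt, fun _ => rfl, Nat.eq_of_mul_eq_mul_right hN0 ?_⟩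
    have h0 := card_FR_ne (F := F) (σ := σ) hle (c := c) (fun h => halt (hc.1 h))
    generalize Nat.card (FR (plusQ m F) c) = N at main h0
    generalize Nat.card {W : Matrix nn σ F // Frame W} = W at hO h0 ⊢
    zify at main hO h0 ⊢
    linear_combination ((Fintype.card F : ℤ) ^ m * ((Fintype.card F : ℤ) ^ m + 1)) * main
      - (C : ℤ) * (Fintype.card F : ℤ) ^ m * h0 + (I : ℤ) * hO

/-- Transport of the centraliser in `Ω` to the even elements commuting with the image. -/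
theorem card_omega_cent (h : Fintype.card F ≠ 2 ∨ m ≠ 2) (x : ↥(Cfsg.isometryGroup F (Cfsg.quadFormPlus m F))) :
    ∃ y : OP, ((y : GL nn F) : Matrix nn nn F) = ((x : GL nn F) : Matrix nn nn F) ∧ (x ^ 2 = 1 → y * y = 1) ∧
      Nat.card {g : ↥(Cfsg.Omega F (Cfsg.quadFormPlus m F)) //
        (g : ↥(Cfsg.isometryGroup F (Cfsg.quadFormPlus m F))) * x =
          x * (g : ↥(Cfsg.isometryGroup F (Cfsg.quadFormPlus m F)))} =
      Nat.card {g : OP // g * y = y * g ∧ dickO (plus_std m) g = 1} := by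
  classical
  set Φ := transEquiv (Q := plusQ m F) (LinearEquiv.refl F (nn → F)) (plus_he m) with hΦ
  have hreg : Reg F (nn → F) := reg_plus h
  have hmem := fun g => mem_omega_iff_dickO (plus_std (F := F) m) hreg (LinearEquiv.refl F (nn → F)) (plus_he m) g
  refine ⟨Φ x, Matrix.ext_of_mulVec_single fun i => by
    simpa using transEquiv_mulVec (LinearEquiv.refl F (nn → F)) (plus_he m) x (Pi.single i 1),
    fun h2 => by rw [← map_mul, ← _root_.sq, h2, map_one], ?_⟩
  refine Nat.card_eq_of_bijective (fun g => ⟨Φ g.1.1, ?_, (hmem _).1 g.1.2⟩) ⟨?_, ?_⟩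
  · rw [← map_mul, ← map_mul, g.2]
  · intro a b hab
    exact Subtype.ext (Subtype.ext (Φ.injective (congrArg Subtype.val hab)))
  · rintro ⟨g, hg, hd⟩
    refine ⟨⟨⟨Φ.symm g, (hmem _).2 (by rw [← hΦ, MulEquiv.apply_symm_apply]; exact hd)⟩, Φ.injective ?_⟩,
      Subtype.ext (Φ.apply_symm_apply g)⟩
    rw [map_mul, map_mul, MulEquiv.apply_symm_apply]
    exact hg

/-- The image of `x - 1` carries the values of the shape. -/
theorem image_values {U : Matrix nn σ F} {S : Matrix σ σ F} (hU : QF (plusQ m F) U S) :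
    (∀ v, plusQ m F ((elt U S - 1) *ᵥ v) = 0) ↔ ∀ u, u ⬝ᵥ S *ᵥ u = 0 := by
  have e : ∀ v, (elt U S - 1) *ᵥ v = U *ᵥ (S *ᵥ ((Uᵀ * Matrix.J (Fin m) F) *ᵥ v)) := fun v => by
    simp only [elt, add_sub_cancel_left, Matrix.mulVec_mulVec, Matrix.mul_assoc]
  refine ⟨fun h u => ?_, fun h v => by rw [e, hU.2]; exact h _⟩
  obtain ⟨V, hV⟩ := hU.1.2
  have hVt : Uᵀ * Vᵀ = 1 := by rw [← Matrix.transpose_mul, hV, Matrix.transpose_one]
  have := h (Matrix.J (Fin m) F *ᵥ (Vᵀ *ᵥ u))
  rw [e, show (Uᵀ * Matrix.J (Fin m) F) *ᵥ (Matrix.J (Fin m) F *ᵥ (Vᵀ *ᵥ u)) = u by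
    rw [Matrix.mulVec_mulVec, Matrix.mulVec_mulVec, Matrix.mul_assoc Uᵀ, J_mul_J, Matrix.mul_one, hVt,
      Matrix.one_mulVec], hU.2] at this
  exact this

end Cfsg.Agent.Lib.Jordan.OrthInvol
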