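import Cfsg.Agent.Lib.Jordan.Symplectic

/-! Jordan types of unipotent isometries of alternating and symmetric forms. -/

set_option autoImplicit false
set_option linter.unusedSectionVars false

namespace Cfsg.Agent.Lib.Jordan

open Module Matrix

variable {F : Type*} [Field F] {ι : Type*} [Fintype ι] [DecidableEq ι]

theorem star_pow {A G : Matrix ι ι F} (hA : Aᵀ * G * A = G) (i : ℕ) :
    ((A - 1)ᵀ) ^ i * G * A ^ i = (-1 : F) ^ i • (G * (A - 1) ^ i) := by
  set N := A - 1 with hN
  have hstar : Nᵀ * G * A = -(G * N) := by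
    rw [hN, Matrix.transpose_sub, Matrix.transpose_one, Matrix.sub_mul, Matrix.sub_mul, hA, Matrix.one_mul,
      Matrix.mul_sub, Matrix.mul_one, neg_sub]
  have hc : Commute N A := (Commute.refl A).sub_left (Commute.one_left A)
  induction i with
  | zero => simp
  | succ i ih =>
    calc (Nᵀ) ^ (i + 1) * G * A ^ (i + 1)
        = (Nᵀ) ^ i * (Nᵀ * G * A) * A ^ i := by rw [pow_succ, pow_succ']; simp only [Matrix.mul_assoc]
      _ = -((Nᵀ) ^ i * G * A ^ i * N) := by
          rw [hstar, Matrix.mul_neg, Matrix.neg_mul]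
          simp only [Matrix.mul_assoc, (hc.pow_right i).eq]
      _ = _ := by rw [ih, Matrix.smul_mul, Matrix.mul_assoc, ← pow_succ, pow_succ (-1 : F), mul_neg_one, neg_smul]

theorem det_of_form {A G : Matrix ι ι F} (hA : Aᵀ * G * A = G) (hG : IsUnit G.det) : IsUnit A.det := by
  have h := congrArg Matrix.det hA
  rw [Matrix.det_mul, Matrix.det_mul] at h
  rw [← h] at hG
  exact isUnit_of_mul_isUnit_right hG

theorem rank_pow_eq {A : Matrix ι ι F} {μ : Multiset ℕ} (h : MType (A - 1) μ) (i : ℕ) :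
    Matrix.rank ((A - 1) ^ i) = (μ.map fun a => a - i).sum := by
  rw [← HasType.finrank_range_pow h i, ← Matrix.toLin'_pow, Matrix.toLin'_apply']; rfl

/-- Isometries of an alternating form: every odd part occurs an even number of times. -/
theorem even_count_odd_of_alt {A G : Matrix ι ι F} (hG : IsUnit G.det) (halt : ∀ x : ι → F, x ⬝ᵥ G *ᵥ x = 0)
    (hA : Aᵀ * G * A = G) {μ : Multiset ℕ} (h : MType (A - 1) μ) (j : ℕ) (hj : Odd j) : Even (μ.count j) := by
  have hdet := det_of_form hA hG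
  have key : ∀ i : ℕ, Even ((μ.map fun a => a - 2 * i).sum) := by
    intro i
    rw [← rank_pow_eq h]
    set N := A - 1 with hN
    have hc : Commute N A := (Commute.refl A).sub_left (Commute.one_left A)
    have hM : Even ((N ^ i)ᵀ * G * N ^ i).rank := even_rank_of_alt _ fun x => by
      rw [← Matrix.mulVec_mulVec, ← Matrix.mulVec_mulVec, Matrix.dotProduct_mulVec, Matrix.vecMul_transpose]
      exact halt _
    have hMA : (N ^ i)ᵀ * G * N ^ i * A ^ i = (-1 : F) ^ i • (G * N ^ (2 * i)) := by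
      calc (N ^ i)ᵀ * G * N ^ i * A ^ i = (Nᵀ) ^ i * G * A ^ i * N ^ i := by
            rw [Matrix.transpose_pow, Matrix.mul_assoc, ((hc.pow_pow i i)).eq, ← Matrix.mul_assoc]
        _ = _ := by rw [star_pow hA, Matrix.smul_mul, Matrix.mul_assoc, ← pow_add, two_mul]
    have hr : ((N ^ i)ᵀ * G * N ^ i).rank = Matrix.rank (N ^ (2 * i)) := by
      have hu : IsUnit (A ^ i).det := by rw [Matrix.det_pow]; exact hdet.pow i
      rw [← Matrix.rank_mul_eq_left_of_isUnit_det (A ^ i) _ hu, hMA, ← Matrix.smul_mul,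
        Matrix.rank_mul_eq_right_of_isUnit_det _ _ (by
          rw [Matrix.det_smul]; exact ((isUnit_neg_one.pow _).pow _).mul hG)]
    rwa [← hr]
  obtain ⟨i, rfl⟩ := hj
  have := key i; have := key (i + 1)
  have := sum_sub_step μ (2 * i); have := sum_sub_step μ (2 * i + 1)
  have := countP_step μ (2 * i)
  rw [show 2 * (i + 1) = 2 * i + 1 + 1 by ring] at *
  rw [Nat.even_iff] at *
  omega

/-- Isometries of a symmetric form, odd characteristic: every even part occurs an even number of times. -/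
theorem even_count_even_of_symm (h2 : (2 : F) ≠ 0) {A G : Matrix ι ι F} (hG : IsUnit G.det) (hsym : Gᵀ = G)
    (hA : Aᵀ * G * A = G) {μ : Multiset ℕ} (h : MType (A - 1) μ) (j : ℕ) (hj : Even j) (hj0 : 0 < j) :
    Even (μ.count j) := by
  have hdet := det_of_form hA hG
  set X := A - A⁻¹ with hX
  have hXskew : (G * X)ᵀ = -(G * X) := by
    have h1 : Aᵀ * G = G * A⁻¹ := by
      conv_rhs => rw [← hA, Matrix.mul_assoc (Aᵀ * G), Matrix.mul_nonsing_inv _ hdet, Matrix.mul_one]
    have h3 : (A⁻¹)ᵀ * G = G * A := by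
      conv_lhs => rw [← hA, Matrix.mul_assoc Aᵀ, ← Matrix.mul_assoc, ← Matrix.transpose_mul,
        Matrix.mul_nonsing_inv _ hdet, Matrix.transpose_one, Matrix.one_mul]
    rw [Matrix.transpose_mul, hsym, hX, Matrix.transpose_sub, Matrix.sub_mul, h1, h3, Matrix.mul_sub, neg_sub]
  have halt : ∀ x : ι → F, x ⬝ᵥ (G * X) *ᵥ x = 0 := fun x => by
    have h4 : x ⬝ᵥ (G * X)ᵀ *ᵥ x = x ⬝ᵥ (G * X) *ᵥ x := by
      rw [Matrix.dotProduct_mulVec, Matrix.vecMul_transpose, dotProduct_comm]
    rw [hXskew, Matrix.neg_mulVec, dotProduct_neg] at h4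
    have : (2 : F) * (x ⬝ᵥ (G * X) *ᵥ x) = 0 := by linear_combination -h4
    exact (mul_eq_zero.mp this).resolve_left h2
  have key : ∀ i : ℕ, Even ((μ.map fun a => a - (2 * i + 1)).sum) := by
    intro i
    rw [← rank_pow_eq h]
    set N := A - 1 with hN
    have hc : Commute N A := (Commute.refl A).sub_left (Commute.one_left A)
    have hM : Even ((N ^ i)ᵀ * (G * X) * N ^ i).rank := even_rank_of_alt _ fun x => by
      rw [← Matrix.mulVec_mulVec, ← Matrix.mulVec_mulVec, Matrix.dotProduct_mulVec, Matrix.vecMul_transpose]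
      exact halt _
    have hAp : IsUnit (A + 1).det := by
      rw [← Matrix.isUnit_iff_isUnit_det, show A + 1 = (2 : F) • (1 : Matrix ι ι F) + N by rw [hN, two_smul]; abel]
      refine h.isNilpotent.isUnit_add_left_of_commute ?_ ((Commute.one_right _).smul_right _)
      rw [← Algebra.algebraMap_eq_smul_one]
      exact (IsUnit.mk0 _ h2).map _
    have hXN : A * X = N * (A + 1) := by
      rw [hX, hN, Matrix.mul_sub, Matrix.mul_nonsing_inv _ hdet, Matrix.sub_mul, Matrix.mul_add, Matrix.mul_one,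
        Matrix.one_mul]
      abel
    have hXA : Commute X A := by
      rw [hX]
      exact (Commute.refl A).sub_left (show A⁻¹ * A = A * A⁻¹ by
        rw [Matrix.nonsing_inv_mul _ hdet, Matrix.mul_nonsing_inv _ hdet])
    have hMA : (N ^ i)ᵀ * (G * X) * N ^ i * A ^ (i + 1) =
        (-1 : F) ^ i • (G * N ^ (2 * i + 1) * (A + 1)) := by
      calc (N ^ i)ᵀ * (G * X) * N ^ i * A ^ (i + 1)
          = (Nᵀ) ^ i * G * A ^ i * ((A * X) * N ^ i) := by
            rw [Matrix.transpose_pow, Matrix.mul_assoc _ (N ^ i) (A ^ (i + 1)), (hc.pow_pow i (i + 1)).eq]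
            simp only [Matrix.mul_assoc]
            rw [← Matrix.mul_assoc X, (hXA.pow_right (i + 1)).eq, pow_succ]
            simp only [Matrix.mul_assoc]
        _ = _ := by
            have hc1 : Commute (A + 1) (N ^ i) := ((hc.symm.add_left (Commute.one_left N)).pow_right i)
            rw [star_pow hA, hXN, Matrix.smul_mul, Matrix.mul_assoc N (A + 1), hc1.eq,
              show 2 * i + 1 = i + (1 + i) by ring, pow_add, pow_add, pow_one]
            simp only [Matrix.mul_assoc]
            rw [hN]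
    have hr : ((N ^ i)ᵀ * (G * X) * N ^ i).rank = Matrix.rank (N ^ (2 * i + 1)) := by
      have hu : IsUnit (A ^ (i + 1)).det := by rw [Matrix.det_pow]; exact hdet.pow _
      rw [← Matrix.rank_mul_eq_left_of_isUnit_det (A ^ (i + 1)) _ hu, hMA, ← Matrix.smul_mul, ← Matrix.smul_mul,
        Matrix.rank_mul_eq_left_of_isUnit_det _ _ hAp, Matrix.rank_mul_eq_right_of_isUnit_det _ _ (by
          rw [Matrix.det_smul]; exact ((isUnit_neg_one.pow _).pow _).mul hG)]
    rwa [← hr]
  obtain ⟨i, hi⟩ := hj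
  obtain ⟨l, rfl⟩ : ∃ l, i = l + 1 := ⟨i - 1, by omega⟩
  subst hi
  have := key l; have := key (l + 1)
  have := sum_sub_step μ (2 * l + 1); have := sum_sub_step μ (2 * l + 1 + 1)
  have := countP_step μ (2 * l + 1)
  rw [show 2 * (l + 1) + 1 = 2 * l + 1 + 1 + 1 by ring] at *
  rw [show l + 1 + (l + 1) = 2 * l + 1 + 1 by ring] at *
  rw [Nat.even_iff] at *
  omega

/-- A Jordan type realised by an isometry of a symmetric nondegenerate form. -/
def OReal (F : Type*) [Field F] (μ : Multiset ℕ) : Prop :=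
  ∃ (n : ℕ) (G A : Matrix (Fin n) (Fin n) F),
    IsUnit G.det ∧ Gᵀ = G ∧ Aᵀ * G * A = G ∧ MType (A - 1) μ

theorem oReal_of {κ : Type*} [Fintype κ] [DecidableEq κ] {G A : Matrix κ κ F} {μ : Multiset ℕ}
    (h1 : IsUnit G.det) (h2 : Gᵀ = G) (h3 : Aᵀ * G * A = G) (h4 : MType (A - 1) μ) : OReal F μ := by
  let e := Fintype.equivFin κ
  refine ⟨_, Matrix.reindex e e G, Matrix.reindex e e A, by rw [Matrix.det_reindex_self]; exact h1,
    by rw [Matrix.transpose_reindex, h2], ?_, ?_⟩
  · rw [Matrix.transpose_reindex]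
    simp only [Matrix.reindex_apply, Matrix.submatrix_mul_equiv, h3]
  · rw [reindex_sub_one]
    exact h4.reindex e

theorem oReal_zero : OReal F 0 := by
  refine oReal_of (κ := Empty) (G := 1) (A := 1) (by simp) Matrix.transpose_one (by simp) ?_
  obtain ⟨μ, hμ⟩ := MType.exists_of_isNilpotent (F := F) (M := (1 - 1 : Matrix Empty Empty F))
    ⟨1, Subsingleton.elim _ _⟩
  have h0 : μ = 0 := by
    by_contra hne
    obtain ⟨a, ha⟩ := Multiset.exists_mem_of_ne_zero hne
    have h1 := Multiset.le_sum_of_mem ha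
    rw [hμ.sum_eq] at h1
    have := hμ.pos ha
    simp at h1
    omega
  rwa [h0] at hμ

theorem OReal.add {μ ν : Multiset ℕ} (h : OReal F μ) (h' : OReal F ν) : OReal F (μ + ν) := by
  obtain ⟨a, G, A, g1, g2, g3, g4⟩ := h
  obtain ⟨b, H, B, k1, k2, k3, k4⟩ := h'
  refine oReal_of (G := Matrix.fromBlocks G 0 0 H) (A := Matrix.fromBlocks A 0 0 B) ?_ ?_ ?_ ?_
  · rw [Matrix.det_fromBlocks_zero₂₁]; exact g1.mul k1
  · rw [Matrix.fromBlocks_transpose, g2, k2]; simp
  · rw [Matrix.fromBlocks_transpose, Matrix.fromBlocks_multiply, Matrix.fromBlocks_multiply]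
    simp [g3, k3]
  · have e1 : Matrix.fromBlocks A 0 0 B - 1 = Matrix.fromBlocks (A - 1) 0 0 (B - 1) := by
      rw [← Matrix.fromBlocks_one, sub_eq_add_neg, Matrix.fromBlocks_neg, Matrix.fromBlocks_add]
      simp [sub_eq_add_neg]
    rw [e1]
    exact mtype_fromBlocks g4 k4

theorem oReal_pair {b : ℕ} (hb : 1 ≤ b) : OReal F {b, b} := by
  haveI : Nonempty (Fin b) := ⟨⟨0, hb⟩⟩
  set L := low F b with hL
  set B := 1 + L with hB
  have hu : IsUnit B.det := jb_det b
  set C := (B⁻¹)ᵀ with hC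
  refine oReal_of (G := Matrix.fromBlocks (0 : Matrix (Fin b) (Fin b) F) (1 : Matrix (Fin b) (Fin b) F) (1 : Matrix (Fin b) (Fin b) F) 0) (A := Matrix.fromBlocks B 0 0 C) ?_ ?_ ?_ ?_
  · have e : Matrix.fromBlocks (0 : Matrix (Fin b) (Fin b) F) (1 : Matrix (Fin b) (Fin b) F) (1 : Matrix (Fin b) (Fin b) F) 0 * Matrix.fromBlocks (0 : Matrix (Fin b) (Fin b) F) (1 : Matrix (Fin b) (Fin b) F) (1 : Matrix (Fin b) (Fin b) F) 0 = 1 := by
      rw [Matrix.fromBlocks_multiply]; simp [Matrix.fromBlocks_one]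
    exact Matrix.isUnit_det_of_left_inverse e
  · rw [Matrix.fromBlocks_transpose]; simp
  · have h1 : Bᵀ * C = 1 := by rw [hC, ← Matrix.transpose_mul, Matrix.nonsing_inv_mul _ hu, Matrix.transpose_one]
    have h2 : Cᵀ * B = 1 := by rw [hC, Matrix.transpose_transpose, Matrix.nonsing_inv_mul _ hu]
    rw [Matrix.fromBlocks_transpose, Matrix.fromBlocks_multiply, Matrix.fromBlocks_multiply]
    simp [h1, h2]
  · have e1 : Matrix.fromBlocks B 0 0 C - 1 = Matrix.fromBlocks L 0 0 (C - 1) := by
      rw [← Matrix.fromBlocks_one, sub_eq_add_neg, Matrix.fromBlocks_neg, Matrix.fromBlocks_add]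
      simp [hB, sub_eq_add_neg]
    rw [e1]
    have hCe : C - 1 = (-(B⁻¹) * L)ᵀ := by
      have : -(B⁻¹) * L = B⁻¹ - 1 := by
        rw [show L = B - 1 by rw [hB]; abel, Matrix.neg_mul, Matrix.mul_sub, Matrix.nonsing_inv_mul _ hu,
          Matrix.mul_one, neg_sub]
      rw [this, Matrix.transpose_sub, Matrix.transpose_one]
    have hcomm : Commute (-(B⁻¹)) L := by
      have h1 : Commute B L := (Commute.one_left _).add_left (Commute.refl _)
      refine Commute.neg_left ?_
      show B⁻¹ * L = L * B⁻¹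
      calc B⁻¹ * L = B⁻¹ * (L * B) * B⁻¹ := by
            rw [Matrix.mul_assoc, Matrix.mul_assoc, Matrix.mul_nonsing_inv _ hu, Matrix.mul_one]
        _ = L * B⁻¹ := by rw [← h1.eq, ← Matrix.mul_assoc, Matrix.nonsing_inv_mul _ hu, Matrix.one_mul]
    have h1 : MType L {b} := by
      simpa using mtype_regular (low_nil (F := F) b) (by simpa using low_rank (F := F) b)
    have h2 : MType (C - 1) {b} := by
      have hn : IsNilpotent (C - 1) := by
        rw [hCe, Matrix.isNilpotent_transpose_iff]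
        exact hcomm.isNilpotent_mul_left (low_nil b)
      have hr : Fintype.card (Fin b) ≤ (C - 1).rank + 1 := by
        rw [hCe, Matrix.rank_transpose, Matrix.rank_mul_eq_right_of_isUnit_det _ _ (by
          rw [Matrix.det_neg]; exact (isUnit_neg_one.pow _).mul (Matrix.isUnit_nonsing_inv_det _ hu)),
          Fintype.card_fin]
        exact low_rank b
      simpa using mtype_regular hn hr
    simpa using mtype_fromBlocks h1 h2

theorem oReal_odd (h2 : (2 : F) ≠ 0) (a : ℕ) : OReal F {2 * a + 1} := by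
  set n := 2 * a + 1 with hn
  set L := low F n with hL
  let G : Matrix (Fin n) (Fin n) F := Matrix.of fun i j => if (i : ℕ) + j = 2 * a then (-1) ^ (i : ℕ) else 0
  have hsym : Gᵀ = G := by
    ext i j
    simp only [G, Matrix.transpose_apply, Matrix.of_apply, add_comm (i : ℕ)]
    split_ifs with h
    · rw [neg_one_pow_eq_pow_mod_two (R := F) (j : ℕ), neg_one_pow_eq_pow_mod_two (R := F) (i : ℕ)]
      congr 1; omega
    · rfl
  have hG : IsUnit G.det := by
    refine Matrix.isUnit_det_of_left_inverse (B := G) (Matrix.ext fun i j => ?_)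
    rw [Matrix.mul_apply, Finset.sum_eq_single ⟨2 * a - (i : ℕ), by omega⟩]
    · have := i.2; have := j.2
      simp only [G, Matrix.of_apply, Matrix.one_apply, Fin.ext_iff]
      by_cases h : (i : ℕ) = j
      · rw [if_pos (by omega), if_pos (by omega), if_pos h, ← pow_add,
          Even.neg_one_pow ⟨a, by omega⟩]
      · rw [if_neg h, if_neg (show ¬ (2 * a - (i : ℕ) + j = 2 * a) by omega), mul_zero]
    · intro c _ hc
      have : (c : ℕ) ≠ 2 * a - i := fun e => hc (Fin.ext e)
      simp only [G, Matrix.of_apply]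
      rw [if_neg (by omega), zero_mul]
    · simp
  have hskew : Lᵀ * G + G * L = 0 := by
    ext i j
    have := i.2; have := j.2
    simp only [Matrix.add_apply, Matrix.mul_apply, Matrix.transpose_apply, Matrix.zero_apply, G, hL, low,
      Matrix.of_apply, ite_mul, mul_ite, one_mul, zero_mul, mul_one, mul_zero]
    by_cases h : (i : ℕ) + j + 1 = 2 * a
    · rw [Finset.sum_eq_single ⟨(i : ℕ) + 1, by omega⟩, Finset.sum_eq_single ⟨(j : ℕ) + 1, by omega⟩]
      · rw [if_pos rfl, if_pos (by simp; omega), if_pos rfl, if_pos (by simp; omega), pow_succ]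
        ring
      · intro c _ hc
        simp [show ¬ (c : ℕ) = (j : ℕ) + 1 from fun e => hc (Fin.ext e)]
      · simp
      · intro c _ hc
        simp [show ¬ (c : ℕ) = (i : ℕ) + 1 from fun e => hc (Fin.ext e)]
      · simp
    · rw [Finset.sum_eq_zero, Finset.sum_eq_zero, add_zero] <;>
      · intro c _
        split_ifs <;> first | omega | rfl
  obtain ⟨U, hU⟩ := (low_nil (F := F) n).neg.isUnit_one_add
  rw [← hL, ← sub_eq_add_neg] at hU
  have hUd : IsUnit (1 - L).det := by rw [← hU]; exact (Matrix.isUnit_iff_isUnit_det _).mp U.isUnit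
  let A := (1 + L) * (1 - L)⁻¹
  refine oReal_of (A := A) hG hsym ?_ ?_
  · have h1 : Aᵀ * G * A = ((1 - L)⁻¹)ᵀ * ((1 + L)ᵀ * G * (1 + L)) * (1 - L)⁻¹ := by
      simp only [A, Matrix.transpose_mul, Matrix.mul_assoc]
    have h3 : (1 + L)ᵀ * G * (1 + L) = (1 - L)ᵀ * G * (1 - L) := by
      have h4 : Lᵀ * G = -(G * L) := eq_neg_of_add_eq_zero_left hskew
      simp only [Matrix.transpose_add, Matrix.transpose_sub, Matrix.transpose_one, Matrix.add_mul, Matrix.sub_mul,
        Matrix.mul_add, Matrix.mul_sub, Matrix.one_mul, Matrix.mul_one, h4, Matrix.neg_mul]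
      abel
    calc Aᵀ * G * A = ((1 - L) * (1 - L)⁻¹)ᵀ * G * ((1 - L) * (1 - L)⁻¹) := by
          rw [h1, h3]; simp only [Matrix.transpose_mul, Matrix.mul_assoc]
      _ = G := by rw [Matrix.mul_nonsing_inv _ hUd]; simp
  · have e : A - 1 = ((2 : F) • L) * (1 - L)⁻¹ := by
      have : (2 : F) • L = (1 + L) - (1 - L) := by rw [two_smul]; abel
      rw [this, Matrix.sub_mul, Matrix.mul_nonsing_inv _ hUd]
    have hc : Commute L (1 - L)⁻¹ := by
      show L * (1 - L)⁻¹ = (1 - L)⁻¹ * L
      have h5 : Commute (1 - L) L := (Commute.one_left _).sub_left (Commute.refl _)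
      calc L * (1 - L)⁻¹ = (1 - L)⁻¹ * ((1 - L) * L) * (1 - L)⁻¹ := by
            rw [← Matrix.mul_assoc (1 - L)⁻¹, Matrix.nonsing_inv_mul _ hUd, Matrix.one_mul]
        _ = _ := by rw [h5.eq, Matrix.mul_assoc, Matrix.mul_assoc, Matrix.mul_nonsing_inv _ hUd, Matrix.mul_one]
    haveI : Nonempty (Fin n) := ⟨⟨0, by omega⟩⟩
    have hd2 : IsUnit ((2 : F) • (1 : Matrix (Fin n) (Fin n) F)).det := by
      rw [Matrix.det_smul, Matrix.det_one, mul_one]; exact (IsUnit.mk0 _ h2).pow _
    have e2 : A - 1 = ((2 : F) • (1 : Matrix (Fin n) (Fin n) F)) * L * (1 - L)⁻¹ := by rw [e]; simp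
    have hnil : IsNilpotent (A - 1) := by
      rw [e]
      exact (hc.smul_left 2).isNilpotent_mul_right ((low_nil n).smul 2)
    have hr : Fintype.card (Fin n) ≤ (A - 1).rank + 1 := by
      rw [e2, Matrix.rank_mul_eq_left_of_isUnit_det _ _ (Matrix.isUnit_nonsing_inv_det _ hUd),
        Matrix.rank_mul_eq_right_of_isUnit_det _ _ hd2, Fintype.card_fin]
      exact low_rank n
    simpa using mtype_regular hnil hr

theorem oReal_of_even_counts (h2 : (2 : F) ≠ 0) : ∀ μ : Multiset ℕ, (∀ a ∈ μ, 0 < a) →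
    (∀ j, Even j → 0 < j → Even (μ.count j)) → OReal F μ := by
  intro μ
  induction μ using Multiset.strongInductionOn with
  | _ μ ih =>
    intro hpos hev
    by_cases hE : ∃ a ∈ μ, Odd a
    · obtain ⟨a, ha, c, hc⟩ := hE
      obtain ⟨ν, rfl⟩ := Multiset.exists_cons_of_mem ha
      have h1 := ih ν (Multiset.lt_cons_self _ _) (fun x hx => hpos x (Multiset.mem_cons_of_mem hx)) fun j hj h0 => by
        have := hev j hj h0
        rwa [Multiset.count_cons_of_ne (fun e => Nat.not_even_iff_odd.mpr ⟨c, by omega⟩ hj)] at this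
      have h3 := (oReal_odd h2 c).add h1
      rwa [Multiset.singleton_add, ← hc] at h3
    · push Not at hE
      rcases Multiset.empty_or_exists_mem μ with rfl | ⟨a, ha⟩
      · exact oReal_zero
      · have hodd : Even a := Nat.not_odd_iff_even.mp (hE a ha)
        have hc2 : 2 ≤ μ.count a := by
          have h1 := Multiset.count_pos.mpr ha
          obtain ⟨c, hc⟩ := hev a hodd (hpos a ha)
          omega
        obtain ⟨ν, rfl⟩ := Multiset.exists_cons_of_mem ha
        rw [Multiset.count_cons_self] at hc2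
        obtain ⟨ν', rfl⟩ := Multiset.exists_cons_of_mem (Multiset.count_pos.mp (show 0 < ν.count a by omega))
        have h1 := ih ν' ((Multiset.lt_cons_self _ _).trans (Multiset.lt_cons_self _ _))
          (fun x hx => hpos x (Multiset.mem_cons_of_mem (Multiset.mem_cons_of_mem hx))) fun j hj h0 => by
          have := hev j hj h0
          simp only [Multiset.count_cons, Nat.even_iff] at this ⊢
          split at this <;> omega
        have h3 := (oReal_pair (F := F) (b := a) (hpos a ha)).add h1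
        rwa [Multiset.insert_eq_cons, Multiset.cons_add, Multiset.singleton_add] at h3

/-- The Gram matrix of the polar form. -/
theorem gram_facts {n : ℕ} (Q : QuadraticForm F (Fin n → F)) (hQ : (QuadraticMap.polarBilin Q).Nondegenerate) :
    ∃ G : Matrix (Fin n) (Fin n) F, IsUnit G.det ∧ Gᵀ = G ∧ (∀ x, x ⬝ᵥ G *ᵥ x = 2 * Q x) ∧
      ∀ A : Matrix (Fin n) (Fin n) F, (∀ u, Q (A *ᵥ u) = Q u) → Aᵀ * G * A = G := by
  classical
  let G := LinearMap.BilinForm.toMatrix' (QuadraticMap.polarBilin Q)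
  have hG : ∀ u v, u ⬝ᵥ G *ᵥ v = QuadraticMap.polar (⇑Q) u v := fun u v => by
    rw [← Matrix.toBilin'_apply', Matrix.toBilin'_toMatrix']
    rfl
  refine ⟨G, isUnit_iff_ne_zero.mpr (Matrix.nondegenerate_iff_det_ne_zero.mp
    (LinearMap.BilinForm.nondegenerate_toMatrix'_iff.mpr hQ)), ?_, fun x => ?_, fun A hA => ?_⟩
  · ext i j
    rw [Matrix.transpose_apply, show G j i = QuadraticMap.polar (⇑Q) (Pi.single j 1) (Pi.single i 1) from
      LinearMap.BilinForm.toMatrix'_apply _ _ _, QuadraticMap.polar_comm,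
      show G i j = QuadraticMap.polar (⇑Q) (Pi.single i 1) (Pi.single j 1) from
      LinearMap.BilinForm.toMatrix'_apply _ _ _]
  · rw [hG, QuadraticMap.polar_self]; norm_num
  · apply Matrix.toBilin'.injective
    refine LinearMap.ext fun u => LinearMap.ext fun v => ?_
    rw [Matrix.toBilin'_apply', Matrix.toBilin'_apply', ← Matrix.mulVec_mulVec, ← Matrix.mulVec_mulVec,
      Matrix.dotProduct_mulVec, Matrix.vecMul_transpose, hG, hG]
    simp only [QuadraticMap.polar]
    rw [← Matrix.mulVec_add, hA, hA, hA]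

end Cfsg.Agent.Lib.Jordan
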